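import Mathlib
import Cfsg.Prelude.Def_Solvable
import Cfsg.Agent.Lib.Helper1.Cores

set_option autoImplicit false

namespace Cfsg.Agent.Lib.Helper74.GlS3

open Subgroup
open scoped commutatorElement

theorem pPrimeCore_eq_bot {X : Type*} [Group X] [Finite X] [Group.IsSolvable X]
    (hF : Cfsg.fittingSubgroup X = Cfsg.pCore 2 X) : Cfsg.pPrimeCore 2 X = ⊥ := by
  unfold Cfsg.pPrimeCore
  rw [sSup_eq_bot]
  rintro N ⟨hN, hodd⟩
  by_contra hne
  have hsol : Group.IsSolvable ↥N := inferInstance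
  obtain ⟨n, hn⟩ := hsol.solvable
  classical
  have hex : ∃ n, derivedSeries ↥N n = ⊥ := ⟨n, hn⟩
  have hfind := Nat.find_spec hex
  have hmin := fun m => Nat.find_min hex (m := m)
  obtain ⟨k, hk⟩ : ∃ k, Nat.find hex = k + 1 := by
    rcases Nat.eq_zero_or_pos (Nat.find hex) with h0 | h0
    · exfalso
      rw [h0, derivedSeries_zero] at hfind
      apply hne
      rw [eq_bot_iff]
      intro x hx
      have : (⟨x, hx⟩ : ↥N) ∈ (⊥ : Subgroup ↥N) := hfind ▸ mem_top _
      simpa using congrArg Subtype.val (mem_bot.1 this)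
    · exact ⟨Nat.find hex - 1, by omega⟩
  have hA : derivedSeries ↥N k ≠ ⊥ := hmin k (by omega)
  rw [hk, derivedSeries_succ] at hfind
  have hBn : ((derivedSeries ↥N k).map N.subtype).Normal := ConjAct.normal_of_characteristic_of_normal
  have hcomm : ∀ a b : ↥((derivedSeries ↥N k).map N.subtype), a * b = b * a := by
    rintro ⟨_, a, ha, rfl⟩ ⟨_, b, hb, rfl⟩
    apply Subtype.ext
    have h1 : ⁅a, b⁆ ∈ ⁅derivedSeries ↥N k, derivedSeries ↥N k⁆ := commutator_mem_commutator ha hb
    rw [hfind, mem_bot, commutatorElement_eq_one_iff_mul_comm] at h1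
    exact congrArg (fun t : ↥N => (t : X)) h1
  have hnil : Group.IsNilpotent ↥((derivedSeries ↥N k).map N.subtype) := by
    let _ : CommGroup ↥((derivedSeries ↥N k).map N.subtype) :=
      { (inferInstance : Group ↥((derivedSeries ↥N k).map N.subtype)) with mul_comm := hcomm }
    exact CommGroup.isNilpotent
  have hle : (derivedSeries ↥N k).map N.subtype ≤ Cfsg.pCore 2 X := by
    rw [← hF]
    exact le_sSup ⟨hBn, hnil⟩
  have h2 : IsPGroup 2 ↥((derivedSeries ↥N k).map N.subtype) :=
    (Cfsg.Agent.Lib.Helper1.pCore_isPGroup 2).to_le hle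
  have : Fact (Nat.Prime 2) := ⟨Nat.prime_two⟩
  obtain ⟨j, hj⟩ := IsPGroup.iff_card.1 h2
  have hdvd : Nat.card ↥((derivedSeries ↥N k).map N.subtype) ∣ Nat.card ↥N :=
    card_dvd_of_le (map_subtype_le _)
  have hc1 : Nat.card ↥((derivedSeries ↥N k).map N.subtype) = 1 := by
    have hcop : (Nat.card ↥((derivedSeries ↥N k).map N.subtype)).Coprime 2 :=
      Nat.Coprime.coprime_dvd_left hdvd hodd
    rw [hj] at hcop ⊢
    rcases Nat.eq_zero_or_pos j with rfl | hjpos
    · simp
    · exfalso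
      have : (2 : ℕ) ∣ 2 ^ j := dvd_pow_self 2 (by omega)
      have := Nat.Coprime.eq_one_of_dvd hcop.symm this
      omega
  apply hA
  have hb : (derivedSeries ↥N k).map N.subtype = ⊥ := card_eq_one.1 hc1
  exact (map_eq_bot_iff_of_injective _ N.subtype_injective).1 hb

end Cfsg.Agent.Lib.Helper74.GlS3
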